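import Cfsg.Agent.Lib.HallConverse.Main
import Mathlib.Algebra.Group.Pointwise.Set.Basic
import Mathlib.Algebra.BigOperators.Group.Finset.Basic
import Mathlib.Data.Nat.Factorization.Basic

/-!
A finite group with a system of pairwise permuting Sylow subgroups has complements for all primes.
-/

set_option autoImplicit false
open scoped Pointwise

namespace Cfsg.Agent.Lib.HallConverse.SylowSystem

universe u

/-- The product of two permuting subgroups, as a subgroup. -/
def mulSubgroup {G : Type u} [Group G] (X Y : Subgroup G)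
    (h : (X : Set G) * (Y : Set G) = (Y : Set G) * (X : Set G)) : Subgroup G where
  carrier := (X : Set G) * (Y : Set G)
  one_mem' := ⟨1, X.one_mem, 1, Y.one_mem, by simp⟩
  mul_mem' := by
    rintro _ _ ⟨x₁, hx₁, y₁, hy₁, rfl⟩ ⟨x₂, hx₂, y₂, hy₂, rfl⟩
    have h1 : y₁ * x₂ ∈ (X : Set G) * (Y : Set G) := by
      rw [h]; exact ⟨y₁, hy₁, x₂, hx₂, rfl⟩
    obtain ⟨x', hx', y', hy', he⟩ := h1
    replace he : x' * y' = y₁ * x₂ := he
    refine ⟨x₁ * x', X.mul_mem hx₁ hx', y' * y₂, Y.mul_mem hy' hy₂, ?_⟩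
    simp only
    calc x₁ * x' * (y' * y₂) = x₁ * (x' * y') * y₂ := by simp [mul_assoc]
      _ = x₁ * (y₁ * x₂) * y₂ := by rw [he]
      _ = x₁ * y₁ * (x₂ * y₂) := by simp [mul_assoc]
  inv_mem' := by
    rintro _ ⟨x, hx, y, hy, rfl⟩
    have h1 : y⁻¹ * x⁻¹ ∈ (X : Set G) * (Y : Set G) := by
      rw [h]; exact ⟨y⁻¹, Y.inv_mem hy, x⁻¹, X.inv_mem hx, rfl⟩
    simpa using h1

theorem exists_subgroup {G : Type u} [Group G] [Finite G]
    (S : (p : Nat.Primes) → Sylow (p : ℕ) G)
    (hS : ∀ p q : Nat.Primes, (S p : Set G) * (S q : Set G) = (S q : Set G) * (S p : Set G))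
    (A : Finset ℕ) (hA : ∀ x ∈ A, x.Prime) :
    ∃ H : Subgroup G, Nat.card H = ∏ x ∈ A, x ^ (Nat.card G).factorization x ∧
      ∀ r : Nat.Primes, (H : Set G) * (S r : Set G) = (S r : Set G) * (H : Set G) := by
  classical
  induction A using Finset.induction_on with
  | empty =>
    refine ⟨⊥, by simp, ?_⟩
    intro r
    simp
  | insert a A ha ih =>
    have hap : a.Prime := hA a (Finset.mem_insert_self a A)
    obtain ⟨H₀, h1, h2⟩ := ih (fun x hx => hA x (Finset.mem_insert_of_mem hx))
    let Sa : Subgroup G := (S ⟨a, hap⟩ : Subgroup G)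
    have hSa : Nat.card Sa = a ^ (Nat.card G).factorization a := by
      haveI : Fact a.Prime := ⟨hap⟩
      exact (S ⟨a, hap⟩).card_eq_multiplicity
    have hperm : (H₀ : Set G) * (Sa : Set G) = (Sa : Set G) * (H₀ : Set G) := h2 ⟨a, hap⟩
    let H : Subgroup G := mulSubgroup H₀ Sa hperm
    have hH₀H : H₀ ≤ H := by
      intro x hx
      exact ⟨x, hx, 1, Sa.one_mem, by simp⟩
    have hSaH : Sa ≤ H := by
      intro x hx
      exact ⟨1, H₀.one_mem, x, hx, by simp⟩
    have hcop : (Nat.card H₀).Coprime (Nat.card Sa) := by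
      rw [h1, hSa]
      apply Nat.Coprime.pow_right
      apply Nat.Coprime.prod_left
      intro x hx
      apply Nat.Coprime.pow_left
      apply (Nat.coprime_primes (hA x (Finset.mem_insert_of_mem hx)) hap).2
      rintro rfl
      exact ha hx
    have hdvd : Nat.card H₀ * Nat.card Sa ∣ Nat.card H :=
      Nat.Coprime.mul_dvd_of_dvd_of_dvd hcop (Subgroup.card_dvd_of_le hH₀H)
        (Subgroup.card_dvd_of_le hSaH)
    have hle : Nat.card H ≤ Nat.card H₀ * Nat.card Sa := by
      rw [← Nat.card_prod]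
      refine Nat.card_le_card_of_surjective (fun z : H₀ × Sa => (⟨z.1 * z.2, z.1, z.1.2, z.2, z.2.2, rfl⟩ : H)) ?_
      rintro ⟨_, x, hx, y, hy, rfl⟩
      exact ⟨(⟨x, hx⟩, ⟨y, hy⟩), rfl⟩
    have hcard : Nat.card H = Nat.card H₀ * Nat.card Sa :=
      le_antisymm hle (Nat.le_of_dvd Nat.card_pos hdvd)
    refine ⟨H, ?_, ?_⟩
    · rw [hcard, h1, hSa, Finset.prod_insert ha, mul_comm]
    · intro r
      have hcoe : (H : Set G) = (H₀ : Set G) * (Sa : Set G) := rfl
      have h5 : (Sa : Set G) * (S r : Set G) = (S r : Set G) * (Sa : Set G) := hS ⟨a, hap⟩ r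
      rw [hcoe, mul_assoc, h5, ← mul_assoc, h2 r, mul_assoc]

theorem hasComplements {G : Type u} [Group G] [Finite G]
    (S : (p : Nat.Primes) → Sylow (p : ℕ) G)
    (hS : ∀ p q : Nat.Primes, (S p : Set G) * (S q : Set G) = (S q : Set G) * (S p : Set G)) :
    Cfsg.Agent.Lib.HallConverse.Main.HasComplements G := by
  classical
  intro p hp
  have hne : Nat.card G ≠ 0 := Nat.card_pos.ne'
  obtain ⟨H, h1, -⟩ := exists_subgroup S hS ((Nat.card G).primeFactors.erase p) (fun x hx =>
    Nat.prime_of_mem_primeFactors (Finset.mem_of_mem_erase hx))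
  refine ⟨H, ?_⟩
  have hprod : ∏ x ∈ (Nat.card G).primeFactors, x ^ (Nat.card G).factorization x = Nat.card G :=
    Nat.prod_factorization_pow_eq_self hne
  have h2 : Nat.card H * H.index = Nat.card G := Subgroup.card_mul_index H
  have h3 : p ^ (Nat.card G).factorization p *
      ∏ x ∈ (Nat.card G).primeFactors.erase p, x ^ (Nat.card G).factorization x = Nat.card G := by
    by_cases hmem : p ∈ (Nat.card G).primeFactors
    · rw [Finset.mul_prod_erase _ (fun x => x ^ (Nat.card G).factorization x) hmem, hprod]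
    · have h4 : (Nat.card G).factorization p = 0 := by
        rw [← Nat.support_factorization] at hmem
        exact Finsupp.notMem_support_iff.1 hmem
      rw [h4, Finset.erase_eq_of_notMem hmem, hprod]
      simp
  rw [← h1] at h3
  have hpos : 0 < Nat.card H := Nat.card_pos
  apply Nat.eq_of_mul_eq_mul_left hpos
  rw [h2, mul_comm (Nat.card H), h3]

end Cfsg.Agent.Lib.HallConverse.SylowSystem
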